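import Mathlib
import Cfsg.Agent.Lib.Helper23.OHyp.Defs
import Cfsg.Agent.Lib.Helper94.Frame
import Cfsg.Agent.Lib.Helper99.Disc

/-!
# OHYP package [GEOM] (S5992): nondegenerate subspaces of even dimension of both types

Reusable: `polB` (polar form as a Mathlib bilinear form), `finrank_perpIn`, `exists_orth_fam`,
`exists_mem_Q_eq` (universality in dimension `≥ 2`), `orth_linearIndependent`, `orth_nd`,
`orth_plus_iff` (type of the span of an orthogonal family via the product of the norms).
-/

set_option autoImplicit false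
open scoped MatrixGroups
open Matrix

namespace Cfsg.Agent.Lib.Helper37.OHyp

open Cfsg.Agent.Lib.Helper23.OHyp Cfsg.Agent.Lib.Helper94 Cfsg.Geo Module

universe u

section

variable {F : Type u} [Field F] {ι : Type} [Fintype ι] [DecidableEq ι] {Q : (ι → F) → F}

/-- the polar form as a Mathlib bilinear form -/
noncomputable def polB (hQ : IsNondegenerateQuadraticForm Q) : LinearMap.BilinForm F (ι → F) :=
  LinearMap.mk₂ F (fun x y => pol Q x y) (pol_add_left hQ) (pol_smul_left hQ)
    (fun z x y => pol_add_right hQ x y z) (fun c z x => pol_smul_right hQ c x z)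

theorem polB_apply (hQ : IsNondegenerateQuadraticForm Q) (x y : ι → F) :
    polB hQ x y = pol Q x y := rfl

theorem pol_sum_left (hQ : IsNondegenerateQuadraticForm Q) {n : ℕ} (a : Fin n → F)
    (v : Fin n → (ι → F)) (y : ι → F) :
    pol Q (∑ i, a i • v i) y = ∑ i, a i * pol Q (v i) y := by
  rw [← polB_apply hQ, map_sum, LinearMap.sum_apply]
  refine Finset.sum_congr rfl fun i _ => ?_
  rw [map_smul, LinearMap.smul_apply, smul_eq_mul, polB_apply]

theorem ne_zero_of_Q_ne (hQ : IsNondegenerateQuadraticForm Q) {f : ι → F} (hf : Q f ≠ 0) :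
    f ≠ 0 := by
  rintro rfl
  exact hf (Q_zero hQ)

theorem finrank_perpIn (hQ : IsNondegenerateQuadraticForm Q) (h2 : (2 : F) ≠ 0)
    (D : Submodule F (ι → F)) (f : ι → F) (hfD : f ∈ D) (hf : Q f ≠ 0) :
    finrank F (perpIn hQ D f) + 1 = finrank F D := by
  have hff : pol Q f f ≠ 0 := by
    rw [pol_self hQ]
    exact mul_ne_zero h2 hf
  have hsup : Submodule.span F {f} ⊔ perpIn hQ D f = D := by
    apply le_antisymm
    · refine sup_le ?_ inf_le_left
      rw [Submodule.span_le]
      intro x hx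
      rw [Set.mem_singleton_iff] at hx
      rw [hx]
      exact hfD
    · intro x hx
      have h1 : x = (pol Q x f / pol Q f f) • f + (x - (pol Q x f / pol Q f f) • f) := by
        abel
      rw [h1]
      refine Submodule.add_mem_sup (Submodule.smul_mem _ _ (Submodule.mem_span_singleton_self f)) ?_
      rw [mem_perpIn]
      refine ⟨D.sub_mem hx (D.smul_mem _ hfD), ?_⟩
      rw [pol_sub_left hQ, pol_smul_left hQ]
      field_simp
      ring
  have hinf : Submodule.span F {f} ⊓ perpIn hQ D f = ⊥ := by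
    rw [eq_bot_iff]
    rintro x ⟨hx1, hx2⟩
    obtain ⟨c, rfl⟩ := Submodule.mem_span_singleton.mp hx1
    have h3 := ((mem_perpIn hQ D f _).mp hx2).2
    rw [pol_smul_left hQ] at h3
    have hc : c = 0 := by
      rcases mul_eq_zero.mp h3 with h | h
      · exact h
      · exact absurd h hff
    rw [hc, zero_smul]
    exact Submodule.zero_mem _
  have h := Submodule.finrank_sup_add_finrank_inf_eq (Submodule.span F {f}) (perpIn hQ D f)
  rw [hsup, hinf, finrank_bot, finrank_span_singleton (ne_zero_of_Q_ne hQ hf)] at h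
  omega

/-- an orthogonal family of `n` nonsingular vectors in a nondegenerate subspace, with a
nondegenerate orthogonal complement inside the subspace -/
theorem exists_orth_fam (hQ : IsNondegenerateQuadraticForm Q) (h2 : (2 : F) ≠ 0) :
    ∀ (n : ℕ) (C : Submodule F (ι → F)), Nd Q C → n ≤ finrank F C →
      ∃ v : Fin n → (ι → F), (∀ i, v i ∈ C) ∧ (∀ i, Q (v i) ≠ 0) ∧
        (∀ i j, i ≠ j → pol Q (v i) (v j) = 0) ∧
        ∃ C' : Submodule F (ι → F), C' ≤ C ∧ Nd Q C' ∧ (∀ i, ∀ w ∈ C', pol Q (v i) w = 0) ∧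
          finrank F C' + n = finrank F C := by
  intro n
  induction n with
  | zero =>
    intro C hC _
    exact ⟨fun i => i.elim0, fun i => i.elim0, fun i => i.elim0, fun i => i.elim0, C, le_rfl, hC,
      fun i => i.elim0, by simp⟩
  | succ n ih =>
    intro C hC hn
    have hne : C ≠ ⊥ := by
      rintro rfl
      rw [finrank_bot] at hn
      omega
    obtain ⟨f, hfC, hf⟩ := exists_nonsingular_mem C hC hne
    have hC1 : Nd Q (perpIn hQ C f) := perpIn_nondeg hQ h2 C hC f hfC hf
    have hd := finrank_perpIn hQ h2 C f hfC hf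
    obtain ⟨v', hv'C, hv'Q, hv'o, C', hC'le, hC'n, hC'o, hC'd⟩ :=
      ih (perpIn hQ C f) hC1 (by omega)
    have hperp : ∀ w ∈ perpIn hQ C f, pol Q w f = 0 := fun w hw => ((mem_perpIn hQ C f w).mp hw).2
    refine ⟨Fin.cons f v', ?_, ?_, ?_, C', hC'le.trans inf_le_left, hC'n, ?_, by omega⟩
    · intro i
      refine Fin.cases ?_ (fun i => ?_) i
      · simpa using hfC
      · simpa using (inf_le_left : perpIn hQ C f ≤ C) (hv'C i)
    · intro i
      refine Fin.cases ?_ (fun i => ?_) i
      · simpa using hf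
      · simpa using hv'Q i
    · intro i j
      refine Fin.cases ?_ (fun i => ?_) i <;> refine Fin.cases ?_ (fun j => ?_) j
      · intro h
        exact absurd rfl h
      · intro _
        simp only [Fin.cons_zero, Fin.cons_succ]
        rw [pol_comm]
        exact hperp _ (hv'C j)
      · intro _
        simp only [Fin.cons_zero, Fin.cons_succ]
        exact hperp _ (hv'C i)
      · intro h
        simp only [Fin.cons_succ]
        exact hv'o i j (fun h' => h (by rw [h']))
    · intro i
      refine Fin.cases ?_ (fun i => ?_) i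
      · intro w hw
        simp only [Fin.cons_zero]
        rw [pol_comm]
        exact hperp w (hC'le hw)
      · intro w hw
        simp only [Fin.cons_succ]
        exact hC'o i w hw

/-- universality: a nondegenerate subspace of dimension at least 2 over a finite field of odd
characteristic represents every scalar -/
theorem exists_mem_Q_eq [Fintype F] (hQ : IsNondegenerateQuadraticForm Q) (h2 : (2 : F) ≠ 0)
    (C : Submodule F (ι → F)) (hC : Nd Q C) (hdim : 2 ≤ finrank F C) (s : F) :
    ∃ w ∈ C, Q w = s := by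
  have hne : C ≠ ⊥ := by
    rintro rfl
    rw [finrank_bot] at hdim
    omega
  obtain ⟨f, hfC, hf⟩ := exists_nonsingular_mem C hC hne
  have hC1 : Nd Q (perpIn hQ C f) := perpIn_nondeg hQ h2 C hC f hfC hf
  have hne1 : perpIn hQ C f ≠ ⊥ := perpIn_ne_bot hQ C f hdim
  obtain ⟨g, hg1, hg⟩ := exists_nonsingular_mem (perpIn hQ C f) hC1 hne1
  have hgC : g ∈ C := ((mem_perpIn hQ C f g).mp hg1).1
  have hgf : pol Q g f = 0 := ((mem_perpIn hQ C f g).mp hg1).2
  have hchar : ringChar F ≠ 2 := by
    intro h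
    have h3 := CharP.cast_eq_zero F (ringChar F)
    rw [h] at h3
    exact h2 (by exact_mod_cast h3)
  have hR : Fintype.card F % 2 = 1 := FiniteField.odd_card_of_char_ne_two hchar
  have hd1 : (Polynomial.C (Q f) * Polynomial.X ^ 2 : Polynomial F).degree = 2 := by
    rw [Polynomial.degree_C_mul_X_pow 2 hf]; rfl
  have hd2 : (Polynomial.C (Q g) * Polynomial.X ^ 2 - Polynomial.C s : Polynomial F).degree
      = 2 := by
    have h4 : (Polynomial.C (Q g) * Polynomial.X ^ 2 : Polynomial F).degree = 2 := by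
      rw [Polynomial.degree_C_mul_X_pow 2 hg]; rfl
    rw [Polynomial.degree_sub_eq_left_of_degree_lt, h4]
    rw [h4]
    exact lt_of_le_of_lt Polynomial.degree_C_le (by norm_num)
  obtain ⟨a, b, hab⟩ := FiniteField.exists_root_sum_quadratic hd1 hd2 hR
  simp only [Polynomial.eval_mul, Polynomial.eval_C, Polynomial.eval_pow, Polynomial.eval_X,
    Polynomial.eval_sub] at hab
  refine ⟨a • f + b • g, C.add_mem (C.smul_mem _ hfC) (C.smul_mem _ hgC), ?_⟩
  rw [Q_add (Q := Q), Q_smul hQ, Q_smul hQ, pol_smul_left hQ, pol_smul_right hQ, pol_comm, hgf]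
  linear_combination hab

/-- an orthogonal family of nonsingular vectors is linearly independent -/
theorem orth_linearIndependent (hQ : IsNondegenerateQuadraticForm Q) (h2 : (2 : F) ≠ 0) {n : ℕ}
    (v : Fin n → (ι → F)) (hv : ∀ i, Q (v i) ≠ 0)
    (ho : ∀ i j, i ≠ j → pol Q (v i) (v j) = 0) : LinearIndependent F v := by
  rw [Fintype.linearIndependent_iff]
  intro a ha j
  have h1 : pol Q (∑ i, a i • v i) (v j) = a j * pol Q (v j) (v j) := by
    rw [pol_sum_left hQ]
    rw [Finset.sum_eq_single j]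
    · intro i _ hij
      rw [ho i j hij, mul_zero]
    · intro h
      exact absurd (Finset.mem_univ j) h
  rw [ha, pol_zero_left hQ, pol_self hQ] at h1
  rcases mul_eq_zero.mp h1.symm with h | h
  · exact h
  · exact absurd h (mul_ne_zero h2 (hv j))

/-- the span of an orthogonal family of nonsingular vectors is nondegenerate -/
theorem orth_nd (hQ : IsNondegenerateQuadraticForm Q) (h2 : (2 : F) ≠ 0) {n : ℕ}
    (v : Fin n → (ι → F)) (hv : ∀ i, Q (v i) ≠ 0)
    (ho : ∀ i j, i ≠ j → pol Q (v i) (v j) = 0) : Nd Q (Submodule.span F (Set.range v)) := by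
  intro w hw hw0
  obtain ⟨a, rfl⟩ := (Submodule.mem_span_range_iff_exists_fun F).mp hw
  have hex : ∃ j, a j ≠ 0 := by
    by_contra hcon
    apply hw0
    have : ∀ j, a j = 0 := fun j => by
      by_contra h
      exact hcon ⟨j, h⟩
    simp [this]
  obtain ⟨j, hj⟩ := hex
  have h1 : pol Q (∑ i, a i • v i) (v j) = a j * pol Q (v j) (v j) := by
    rw [pol_sum_left hQ]
    rw [Finset.sum_eq_single j]
    · intro i _ hij
      rw [ho i j hij, mul_zero]
    · intro h
      exact absurd (Finset.mem_univ j) h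
  have h3 : pol Q (∑ i, a i • v i) (v j) ≠ 0 := by
    rw [h1, pol_self hQ]
    exact mul_ne_zero hj (mul_ne_zero h2 (hv j))
  have hmem : v j ∈ Submodule.span F (Set.range v) := Submodule.subset_span ⟨j, rfl⟩
  refine ⟨⟨v j, hmem, ?_⟩, ⟨v j, hmem, h3⟩⟩
  show pol Q (v j) (∑ i, a i • v i) ≠ 0
  rw [pol_comm]
  exact h3

/-- the type of the span of an orthogonal family of `2k` nonsingular vectors -/
theorem orth_plus_iff [Fintype F] (hQ : IsNondegenerateQuadraticForm Q) (h2 : (2 : F) ≠ 0)
    {n : ℕ} (k : ℕ) (hn : n = 2 * k) (v : Fin n → (ι → F)) (hv : ∀ i, Q (v i) ≠ 0)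
    (ho : ∀ i j, i ≠ j → pol Q (v i) (v j) = 0) :
    Plus Q (Submodule.span F (Set.range v)) ↔ IsSquare ((-1) ^ k * ∏ i, (2 * Q (v i))) := by
  classical
  have hli := orth_linearIndependent hQ h2 v hv ho
  have hnd := orth_nd hQ h2 v hv ho
  set W : Submodule F (ι → F) := Submodule.span F (Set.range v) with hW
  let b : Basis (Fin n) F W := Basis.span hli
  have hb : ∀ i, ((b i : W) : ι → F) = v i := fun i => by
    show ((Basis.span hli i : W) : ι → F) = v i
    rw [Basis.span_apply]
  let B : LinearMap.BilinForm F W := (polB hQ).restrict W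
  have hB : ∀ x y : W, B x y = pol Q (x : ι → F) (y : ι → F) := fun x y => rfl
  have hsymm : ∀ x y : W, B x y = B y x := fun x y => by rw [hB, hB, pol_comm]
  have hV : finrank F W = 2 * k := by
    rw [hW, finrank_span_eq_card hli, Fintype.card_fin, hn]
  have hG : (Matrix.of fun i j : Fin n => B (b i) (b j)) = Matrix.diagonal fun i => 2 * Q (v i) := by
    ext i j
    rw [Matrix.of_apply, hB, hb, hb]
    by_cases hij : i = j
    · subst hij
      rw [Matrix.diagonal_apply_eq, pol_self hQ]
    · rw [Matrix.diagonal_apply_ne _ hij, ho i j hij]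
  have hdet : (Matrix.of fun i j : Fin n => B (b i) (b j)).det = ∏ i, (2 * Q (v i)) := by
    rw [hG, Matrix.det_diagonal]
  have hBnd : B.Nondegenerate := by
    constructor
    · intro x hx
      by_contra hx0
      have hx0' : (x : ι → F) ≠ 0 := fun h => hx0 (Subtype.ext h)
      obtain ⟨-, ⟨y, hy, hxy⟩⟩ := hnd (x : ι → F) x.2 hx0'
      exact hxy (hx ⟨y, hy⟩)
    · intro y hy
      by_contra hy0
      have hy0' : (y : ι → F) ≠ 0 := fun h => hy0 (Subtype.ext h)
      obtain ⟨⟨x, hx, hxy⟩, -⟩ := hnd (y : ι → F) y.2 hy0'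
      exact hxy (hy ⟨x, hx⟩)
  rw [← hdet]
  constructor
  · rintro ⟨U, hUW, hUts, hUd⟩
    have hUk : finrank F U = k := by
      have : finrank F W = 2 * k := hV
      omega
    have hX : finrank F (U.comap W.subtype) = k := by
      rw [(Submodule.comapSubtypeEquivOfLe hUW).finrank_eq, hUk]
    have hti : ∀ x ∈ U.comap W.subtype, ∀ y ∈ U.comap W.subtype, B x y = 0 := by
      intro x hx y hy
      rw [Submodule.mem_comap] at hx hy
      have hx' : (x : ι → F) ∈ U := hx
      have hy' : (y : ι → F) ∈ U := hy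
      rw [hB]
      show QuadraticMap.polar Q (x : ι → F) (y : ι → F) = 0
      unfold QuadraticMap.polar
      rw [hUts _ (U.add_mem hx' hy'), hUts _ hx', hUts _ hy']
      ring
    obtain ⟨s, hs⟩ := Cfsg.Agent.Lib.Helper99.ti_half_disc h2 B hsymm k hV (U.comap W.subtype) hX
      hti b
    refine ⟨s, ?_⟩
    rw [hs, ← mul_assoc, ← mul_pow]
    simp
  · intro hsq
    obtain ⟨X, hXk, hXti⟩ := Cfsg.Agent.Lib.Helper99.exists_ti_of_disc h2 B hBnd hsymm k hV b hsq
    refine ⟨X.map W.subtype, Submodule.map_subtype_le W X, ?_, ?_⟩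
    · intro u hu
      rw [Submodule.mem_map] at hu
      obtain ⟨x, hx, rfl⟩ := hu
      have h1 := hXti x hx x hx
      rw [hB, pol_self hQ] at h1
      rcases mul_eq_zero.mp h1 with h | h
      · exact absurd h h2
      · exact h
    · rw [Submodule.finrank_map_subtype_eq, hXk, hV]

end

theorem pkgGeom : PkgGeom.{u} := by
  intro F _ _ ι _ _ Q hQ h2 C hC e ε he hdim hε0
  classical
  by_cases he0 : e = 0
  · subst he0
    refine ⟨⊥, bot_le, ?_, finrank_bot F (ι → F), ?_⟩
    · intro w hw hw0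
      exact absurd ((Submodule.mem_bot F).mp hw) hw0
    · refine ⟨fun _ => hε0 rfl, fun _ => ⟨⊥, le_rfl, ?_, by simp⟩⟩
      intro w hw
      rw [(Submodule.mem_bot F).mp hw]
      exact Q_zero hQ
  obtain ⟨k, hk⟩ := he
  obtain ⟨n, hn⟩ : ∃ n, e = n + 1 := ⟨e - 1, by omega⟩
  obtain ⟨v', hv'C, hv'Q, hv'o, C', hC'le, hC'n, hC'o, hC'd⟩ :=
    exists_orth_fam hQ h2 n C hC (by omega)
  have hC'dim : 2 ≤ finrank F C' := by omega
  have hπ0 : (∏ i, (2 * Q (v' i))) ≠ 0 :=
    Finset.prod_ne_zero_iff.mpr (fun i _ => mul_ne_zero h2 (hv'Q i))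
  generalize hπ : (∏ i, (2 * Q (v' i))) = π at hπ0
  have hchar : ringChar F ≠ 2 := by
    intro h
    have h3 := CharP.cast_eq_zero F (ringChar F)
    rw [h] at h3
    exact h2 (by exact_mod_cast h3)
  obtain ⟨ν, hν⟩ := FiniteField.exists_nonsquare hchar
  obtain ⟨ρ, hρ0, hρε⟩ : ∃ ρ : F, ρ ≠ 0 ∧ (IsSquare ρ ↔ ε) := by
    by_cases hε : ε
    · exact ⟨1, one_ne_zero, ⟨fun _ => hε, fun _ => ⟨1, by simp⟩⟩⟩
    · refine ⟨ν, ?_, ⟨fun h => absurd h hν, fun h => absurd h hε⟩⟩
      rintro rfl
      exact hν ⟨0, by simp⟩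
  obtain ⟨w, hwC', hw⟩ := exists_mem_Q_eq hQ h2 C' hC'n hC'dim ((-1) ^ k * π * ρ / 2)
  have hm0 : ((-1 : F)) ^ k ≠ 0 := pow_ne_zero _ (neg_ne_zero.mpr one_ne_zero)
  have hwQ : Q w ≠ 0 := by
    rw [hw]
    exact div_ne_zero (mul_ne_zero (mul_ne_zero hm0 hπ0) hρ0) h2
  have hvQ : ∀ i, Q ((Fin.cons w v' : Fin (n + 1) → (ι → F)) i) ≠ 0 := by
    intro i
    refine Fin.cases ?_ (fun i => ?_) i
    · simpa using hwQ
    · simpa using hv'Q i
  have hvo : ∀ i j, i ≠ j → pol Q ((Fin.cons w v' : Fin (n + 1) → (ι → F)) i)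
      ((Fin.cons w v' : Fin (n + 1) → (ι → F)) j) = 0 := by
    intro i j
    refine Fin.cases ?_ (fun i => ?_) i <;> refine Fin.cases ?_ (fun j => ?_) j
    · intro h
      exact absurd rfl h
    · intro _
      simp only [Fin.cons_zero, Fin.cons_succ]
      rw [pol_comm]
      exact hC'o j w hwC'
    · intro _
      simp only [Fin.cons_zero, Fin.cons_succ]
      exact hC'o i w hwC'
    · intro h
      simp only [Fin.cons_succ]
      exact hv'o i j (fun h' => h (by rw [h']))
  have hvC : ∀ i, (Fin.cons w v' : Fin (n + 1) → (ι → F)) i ∈ C := by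
    intro i
    refine Fin.cases ?_ (fun i => ?_) i
    · simpa using hC'le hwC'
    · simpa using hv'C i
  have hprod : ∏ i, (2 * Q ((Fin.cons w v' : Fin (n + 1) → (ι → F)) i)) = (2 * Q w) * π := by
    rw [Fin.prod_univ_succ]
    simp [hπ]
  have hiff := orth_plus_iff hQ h2 k (by omega : n + 1 = 2 * k)
    (Fin.cons w v' : Fin (n + 1) → (ι → F)) hvQ hvo
  refine ⟨Submodule.span F (Set.range (Fin.cons w v' : Fin (n + 1) → (ι → F))), ?_,
    orth_nd hQ h2 _ hvQ hvo, ?_, ?_⟩
  · rw [Submodule.span_le]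
    rintro x ⟨i, rfl⟩
    exact hvC i
  · rw [finrank_span_eq_card (orth_linearIndependent hQ h2 _ hvQ hvo), Fintype.card_fin]
    omega
  · rw [hiff, hprod, hw, ← hρε]
    have hsq : (-1 : F) ^ k * (-1) ^ k = 1 := by
      rw [← mul_pow]
      simp
    have h5 : 2 * ((-1 : F) ^ k * π * ρ / 2) = (-1) ^ k * π * ρ := by
      field_simp
    have hval : (-1 : F) ^ k * (2 * ((-1) ^ k * π * ρ / 2) * π) = π * π * ρ := by
      rw [h5]
      linear_combination (π * π * ρ) * hsq
    rw [hval]
    constructor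
    · rintro ⟨x, hx⟩
      refine ⟨x / π, ?_⟩
      field_simp
      linear_combination hx
    · rintro ⟨y, hy⟩
      exact ⟨π * y, by rw [hy]; ring⟩

end Cfsg.Agent.Lib.Helper37.OHyp
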