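import Mathlib
import Cfsg.Agent.Lib.Helper12.OHyp.ExDefs

/-!
# OHYP package [EMX] (S5992, EXIST cut of helper12): the model isometry
-/

set_option autoImplicit false
open scoped MatrixGroups
open Matrix

namespace Cfsg.Agent.Lib.Helper37.OHyp

open Cfsg.Agent.Lib.Helper23.OHyp Cfsg.Agent.Lib.Helper12.OHyp

universe u

section

variable {F : Type u} [Field F] {κ : Type} [Fintype κ] [DecidableEq κ] {j f : ℕ}

theorem modelX_mulVec_inl (y : Matrix κ κ F) (v : (κ × Fin j) ⊕ Fin f → F) (k : κ) (t : Fin j) :
    (modelX y j f *ᵥ v) (Sum.inl (k, t)) = (y *ᵥ fun k' => v (Sum.inl (k', t))) k := by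
  unfold modelX
  rw [Matrix.fromBlocks_mulVec]
  simp only [Sum.elim_inl, Matrix.zero_mulVec, add_zero]
  simp only [Matrix.mulVec, dotProduct, Fintype.sum_prod_type, Matrix.blockDiagonal_apply,
    Function.comp_apply]
  refine Finset.sum_congr rfl fun k' _ => ?_
  rw [Finset.sum_eq_single t]
  · simp
  · intro t' _ ht'
    simp [Ne.symm ht']
  · intro h
    exact absurd (Finset.mem_univ t) h

theorem modelX_mulVec_inr (y : Matrix κ κ F) (v : (κ × Fin j) ⊕ Fin f → F) (s : Fin f) :
    (modelX y j f *ᵥ v) (Sum.inr s) = v (Sum.inr s) := by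
  unfold modelX
  rw [Matrix.fromBlocks_mulVec]
  simp

theorem modelX_mul (A B : Matrix κ κ F) :
    modelX A j f * modelX B j f = modelX (A * B) j f := by
  unfold modelX
  rw [Matrix.fromBlocks_multiply]
  simp [Matrix.blockDiagonal_mul]

omit [Fintype κ] in
theorem modelX_one : modelX (1 : Matrix κ κ F) j f = 1 := by
  unfold modelX
  have : (Matrix.blockDiagonal fun _ : Fin j => (1 : Matrix κ κ F)) = 1 := Matrix.blockDiagonal_one
  rw [this, Matrix.fromBlocks_one]

theorem modelX_pow (A : Matrix κ κ F) (n : ℕ) : modelX A j f ^ n = modelX (A ^ n) j f := by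
  induction n with
  | zero => rw [pow_zero, pow_zero, modelX_one]
  | succ n ih => rw [pow_succ, pow_succ, ih, modelX_mul]

end

theorem pkgEMX : PkgEMX.{u} := by
  intro F _ κ _ _ _ QE y r j f hy hr hyr hdet hj
  classical
  have hyiso : ∀ u : κ → F, QE ((y : Matrix κ κ F) *ᵥ u) = QE u := fun u => hy u u
  -- the unit
  let x' : GL ((κ × Fin j) ⊕ Fin f) F :=
    ⟨modelX (y : Matrix κ κ F) j f, modelX ((y⁻¹ : GL κ F) : Matrix κ κ F) j f,
      by rw [modelX_mul, ← Units.val_mul, mul_inv_cancel, Units.val_one, modelX_one],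
      by rw [modelX_mul, ← Units.val_mul, inv_mul_cancel, Units.val_one, modelX_one]⟩
  have hx'val : (x' : Matrix ((κ × Fin j) ⊕ Fin f) ((κ × Fin j) ⊕ Fin f) F)
      = modelX (y : Matrix κ κ F) j f := rfl
  have hpow : x' ^ r = 1 := by
    apply Units.ext
    rw [Units.val_pow_eq_pow_val, hx'val, modelX_pow, ← Units.val_pow_eq_pow_val, hyr,
      Units.val_one, modelX_one, Units.val_one]
  have hdet0 : ((y : Matrix κ κ F) - 1).det ≠ 0 := hdet.ne_zero
  have hfix0 : ∀ w : κ → F, (y : Matrix κ κ F) *ᵥ w = w → w = 0 := by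
    intro w hw
    apply Matrix.eq_zero_of_mulVec_eq_zero hdet0
    rw [Matrix.sub_mulVec, hw, Matrix.one_mulVec, sub_self]
  have hne1 : x' ≠ 1 := by
    intro h
    have h1 : modelX (y : Matrix κ κ F) j f = 1 := by
      rw [← hx'val, h, Units.val_one]
    obtain ⟨k0⟩ := ‹Nonempty κ›
    have t0 : Fin j := ⟨0, hj⟩
    -- the vector `e_{k0}` in block `t0` would be fixed by `y`
    have h2 := modelX_mulVec_inl (f := f) (y : Matrix κ κ F)
      (fun p => Sum.elim (fun q : κ × Fin j => if q = (k0, t0) then (1 : F) else 0) (fun _ => 0) p)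
    have h3 : (fun k' : κ => if (k', t0) = (k0, t0) then (1 : F) else 0) = 0 := by
      apply hfix0
      funext k
      have h4 := h2 k t0
      rw [h1, Matrix.one_mulVec] at h4
      simp only [Sum.elim_inl] at h4
      exact h4.symm
    have h5 := congrFun h3 k0
    simp at h5
  haveI : Fact r.Prime := ⟨hr⟩
  refine ⟨x', hx'val, ?_, orderOf_eq_prime hpow hne1, ?_⟩
  · -- isometry
    intro u _
    show modelQ QE j f (modelX (y : Matrix κ κ F) j f *ᵥ u) = modelQ QE j f u
    unfold modelQ
    congr 1
    · refine Finset.sum_congr rfl fun t _ => ?_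
      have : (fun k => (modelX (y : Matrix κ κ F) j f *ᵥ u) (Sum.inl (k, t)))
          = (y : Matrix κ κ F) *ᵥ fun k' => u (Sum.inl (k', t)) := by
        funext k
        exact modelX_mulVec_inl _ u k t
      rw [this, hyiso]
    · refine Finset.sum_congr rfl fun s _ => ?_
      rw [modelX_mulVec_inr]
  · -- the fixed space
    have hker : fixSp (modelX (y : Matrix κ κ F) j f)
        = LinearMap.ker (LinearMap.funLeft F F
            (Sum.inl : κ × Fin j → (κ × Fin j) ⊕ Fin f)) := by
      ext v
      unfold fixSp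
      rw [LinearMap.mem_ker, LinearMap.mem_ker, LinearMap.sub_apply, Matrix.toLin'_apply,
        sub_eq_zero, Module.End.one_apply]
      constructor
      · intro h
        funext p
        obtain ⟨k, t⟩ := p
        have h6 : (fun k' => v (Sum.inl (k', t))) = 0 := by
          apply hfix0
          funext k'
          rw [← modelX_mulVec_inl (f := f) (y : Matrix κ κ F) v k' t, h]
        exact congrFun h6 k
      · intro h
        have h7 : ∀ p : κ × Fin j, v (Sum.inl p) = 0 := fun p => congrFun h p
        funext p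
        rcases p with ⟨k, t⟩ | s
        · rw [modelX_mulVec_inl]
          have h8 : (fun k' => v (Sum.inl (k', t))) = 0 := by
            funext k'
            exact h7 (k', t)
          rw [h8, Matrix.mulVec_zero, h7]
          rfl
        · rw [modelX_mulVec_inr]
    rw [hker]
    have hsurj : Function.Surjective (LinearMap.funLeft F F
        (Sum.inl : κ × Fin j → (κ × Fin j) ⊕ Fin f)) :=
      LinearMap.funLeft_surjective_of_injective F F _ Sum.inl_injective
    have h9 := LinearMap.finrank_range_add_finrank_ker (LinearMap.funLeft F F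
        (Sum.inl : κ × Fin j → (κ × Fin j) ⊕ Fin f))
    rw [LinearMap.range_eq_top.mpr hsurj, finrank_top, Module.finrank_fintype_fun_eq_card,
      Module.finrank_fintype_fun_eq_card, Fintype.card_sum, Fintype.card_fin] at h9
    omega

end Cfsg.Agent.Lib.Helper37.OHyp
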