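import Mathlib
import Cfsg.Agent.Lib.Helper23.OHyp.Defs

/-!
# OHYP package [SUB] (S5992): invariant nondegenerate subspaces of every dimension `c j`
-/

set_option autoImplicit false
open scoped MatrixGroups
open Matrix

namespace Cfsg.Agent.Lib.Helper37.OHyp

open Cfsg.Agent.Lib.Helper23.OHyp

universe u

theorem pkgSub_of (hBlk : PkgBlk.{u}) (hPerp : PkgPerp.{u}) (hSum : PkgSum.{u}) : PkgSub.{u} := by
  intro F _ _ ι _ _ Q r x hStd W hWm hWi hWn j
  have hdet : IsUnit x.det := by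
    have h1 : x.det ^ r = 1 := by rw [← Matrix.det_pow, hStd.pow, Matrix.det_one]
    exact IsUnit.of_pow_eq_one h1 hStd.prime.ne_zero
  induction j with
  | zero =>
    intro _
    refine ⟨⊥, bot_le, ?_, ?_, ?_⟩
    · show (⊥ : Submodule F (ι → F)).map (Matrix.toLin' x) ≤ ⊥
      rw [Submodule.map_bot]
    · intro w hw hw0
      exact absurd ((Submodule.mem_bot F).mp hw) hw0
    · rw [finrank_bot, Nat.mul_zero]
  | succ j ih =>
    intro hj
    set c := cc (Fintype.card F) r with hc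
    have hle : c * j ≤ Module.finrank F W := le_trans (Nat.mul_le_mul_left c (Nat.le_succ j)) hj
    obtain ⟨W1, hW1W, hW1i, hW1n, hW1d⟩ := ih hle
    by_cases hc0 : c = 0
    · refine ⟨W1, hW1W, hW1i, hW1n, ?_⟩
      rw [hW1d, hc0, Nat.zero_mul, Nat.zero_mul]
    obtain ⟨W2, hW2W, hW2i, hW2n, hperp, hsup, hdim⟩ :=
      hPerp F ι Q hStd.nondeg x hStd.isom hdet W W1 hW1W hWi hW1i hWn hW1n
    have hW2d : c ≤ Module.finrank F W2 := by
      have : c * (j + 1) = c * j + c := by ring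
      omega
    have hW2ne : W2 ≠ ⊥ := by
      rintro rfl
      rw [finrank_bot] at hW2d
      omega
    obtain ⟨D, hDW2, hDi, hDn, hDd, -⟩ :=
      hBlk F ι Q r x hStd W2 (le_trans hW2W hWm) hW2i hW2n hW2ne
    have hperp' : Perp Q W1 D := fun u hu v hv => hperp u hu v (hDW2 hv)
    obtain ⟨hSn, hSd, -⟩ := hSum F ι Q hStd.nondeg hStd.two W1 D hW1n hDn hperp'
    refine ⟨W1 ⊔ D, sup_le hW1W (le_trans hDW2 hW2W), ?_, hSn, ?_⟩
    · show (W1 ⊔ D).map (Matrix.toLin' x) ≤ W1 ⊔ D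
      rw [Submodule.map_sup]
      exact sup_le_sup hW1i hDi
    · rw [hSd, hW1d, hDd]
      ring

end Cfsg.Agent.Lib.Helper37.OHyp
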